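import Cfsg.Agent.H769.Kaw.Main
import Cfsg.Agent.H631.Kaw.Main

/-!
# The sign of the Kawanaka scalar (helper443)

`Y` with a root group datum of characteristic `p`, `V` irreducible, `∑ χ(u) = e p ^ k χ(1)` over the `p`-elements `u`.
If `V` has a vector `f ≠ 0` fixed by `V_K` and no nonzero vector fixed by `V_K'`, `K' ⊂ K`, then `e = (-1)^|K|`.

* `nonneg_of_avg` : the positivity;
* `sign_of_cusp` : the sign.
-/

set_option autoImplicit false
set_option linter.unusedSectionVars false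

namespace Cfsg.Agent.H443.TD

open CoxeterSystem Cfsg.Agent.ChevalleyStructure.CoxeterGeom Cfsg.Agent.Tits.Roots Cfsg.Agent.Tits.Core
  Cfsg.Agent.Tits.Exchange Cfsg.Agent.Nodes.Reps Cfsg.Agent.Nodes.BNOf Cfsg.Agent.Nodes.StabComb
  Cfsg.Agent.Nodes.Bruhat Cfsg.Agent.Nodes.OppDec Cfsg.Agent.Nodes.LeviDec Cfsg.Agent.Nodes.RGDChev
  Cfsg.Agent.H631.Kaw

open scoped ComplexOrder

universe u

section form

variable {Y : Type u} [Group Y] [Fintype Y] {m : ℕ} (ρ : Representation ℂ Y (Fin m → ℂ))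

/-- the invariant form -/
noncomputable def bf (v w : Fin m → ℂ) : ℂ := ∑ g : Y, star (ρ g v) ⬝ᵥ (ρ g w)

theorem bf_inv (x : Y) (v w : Fin m → ℂ) : bf ρ (ρ x v) (ρ x w) = bf ρ v w := by
  rw [bf, bf]
  conv_rhs => rw [← Equiv.sum_comp (Equiv.mulRight x)]
  refine Finset.sum_congr rfl fun g _ => ?_
  rw [Equiv.coe_mulRight, map_mul]
  rfl

theorem bf_inv' (x : Y) (v w : Fin m → ℂ) : bf ρ v (ρ x w) = bf ρ (ρ x⁻¹ v) w := by
  rw [← bf_inv ρ x (ρ x⁻¹ v) w]
  congr 1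
  rw [← Module.End.mul_apply, ← map_mul, mul_inv_cancel, map_one, Module.End.one_apply]

theorem bf_sum_right {ι : Type*} (s : Finset ι) (v : Fin m → ℂ) (w : ι → Fin m → ℂ) :
    bf ρ v (∑ i ∈ s, w i) = ∑ i ∈ s, bf ρ v (w i) := by
  simp only [bf, map_sum]
  rw [Finset.sum_comm]
  refine Finset.sum_congr rfl fun g _ => ?_
  rw [dotProduct_sum]

theorem bf_sum_left {ι : Type*} (s : Finset ι) (v : ι → Fin m → ℂ) (w : Fin m → ℂ) :
    bf ρ (∑ i ∈ s, v i) w = ∑ i ∈ s, bf ρ (v i) w := by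
  simp only [bf, map_sum, star_sum]
  rw [Finset.sum_comm]
  refine Finset.sum_congr rfl fun g _ => ?_
  rw [sum_dotProduct]

theorem bf_smul_right (c : ℂ) (v w : Fin m → ℂ) : bf ρ v (c • w) = c * bf ρ v w := by
  simp only [bf, map_smul, dotProduct_smul, smul_eq_mul, Finset.mul_sum]

theorem bf_nonneg (v : Fin m → ℂ) : 0 ≤ bf ρ v v :=
  Finset.sum_nonneg fun g _ => dotProduct_star_self_nonneg _

theorem bf_pos {v : Fin m → ℂ} (hv : v ≠ 0) : 0 < bf ρ v v := by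
  refine Finset.sum_pos' (fun g _ => dotProduct_star_self_nonneg _) ⟨1, Finset.mem_univ _, ?_⟩
  rw [map_one, Module.End.one_apply]
  exact lt_of_le_of_ne (dotProduct_star_self_nonneg _) fun h => hv (dotProduct_star_self_eq_zero.1 h.symm)

open Classical in
/-- **positivity** -/
theorem nonneg_of_avg (H K : Subgroup Y) {f : Fin m → ℂ} (hf0 : f ≠ 0) (hf : ∀ u ∈ H, ρ u f = f) {c : ℂ}
    (hc : ∑ u ∈ Finset.univ.filter (· ∈ H), ρ u (∑ y ∈ Finset.univ.filter (· ∈ K), ρ y f) = c • f) : 0 ≤ c := by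
  set h : Fin m → ℂ := ∑ y ∈ Finset.univ.filter (· ∈ K), ρ y f with hh
  have h1 : c * bf ρ f f = ((Finset.univ.filter (· ∈ H)).card : ℂ) * bf ρ f h := by
    rw [← bf_smul_right, ← hc, bf_sum_right, Finset.sum_congr rfl (g := fun _ => bf ρ f h), Finset.sum_const,
      nsmul_eq_mul]
    intro u hu
    rw [bf_inv', hf _ (inv_mem (Finset.mem_filter.1 hu).2)]
  have h2 : bf ρ h h = ((Finset.univ.filter (· ∈ K)).card : ℂ) * bf ρ f h := by
    conv_lhs => rw [hh, bf_sum_left]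
    rw [Finset.sum_congr rfl (g := fun _ => bf ρ f h), Finset.sum_const, nsmul_eq_mul]
    intro y hy
    have h3 := bf_inv' ρ y⁻¹ f h
    rw [inv_inv] at h3
    rw [← h3]
    congr 1
    rw [hh, map_sum]
    have hy' := (Finset.mem_filter.1 hy).2
    refine Finset.sum_nbij (fun z => y⁻¹ * z) (fun z hz => ?_) (fun a _ b _ hab => mul_left_cancel hab)
      (fun z hz => ?_) fun z _ => ?_
    · exact Finset.mem_filter.2 ⟨Finset.mem_univ _, mul_mem (inv_mem hy') (Finset.mem_filter.1 hz).2⟩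
    · refine ⟨y * z, ?_, inv_mul_cancel_left y z⟩
      rw [Finset.mem_coe] at hz ⊢
      exact Finset.mem_filter.2 ⟨Finset.mem_univ _, mul_mem hy' (Finset.mem_filter.1 hz).2⟩
    · rw [map_mul]
      rfl
  have hK : (0 : ℂ) < ((Finset.univ.filter (· ∈ K)).card : ℂ) := by
    rw [Nat.cast_pos]
    exact Finset.card_pos.2 ⟨1, Finset.mem_filter.2 ⟨Finset.mem_univ _, one_mem K⟩⟩
  have h4 : c * (bf ρ f f * ((Finset.univ.filter (· ∈ K)).card : ℂ)) =
      ((Finset.univ.filter (· ∈ H)).card : ℂ) * bf ρ h h := by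
    rw [← mul_assoc, h1, h2]
    ring
  have h5 : 0 ≤ c * (bf ρ f f * ((Finset.univ.filter (· ∈ K)).card : ℂ)) := by
    rw [h4]
    exact mul_nonneg (Nat.cast_nonneg _) (bf_nonneg ρ h)
  have h6 : 0 < bf ρ f f * ((Finset.univ.filter (· ∈ K)).card : ℂ) := mul_pos (bf_pos ρ hf0) hK
  have h7 := mul_nonneg h5 (inv_nonneg.2 h6.le)
  rwa [mul_inv_cancel_right₀ h6.ne'] at h7

end form

variable {I W : Type*} {Y : Type u} [Fintype I] [DecidableEq I] [Group W] [Group Y] {M : CoxeterMatrix I}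
  {cs : CoxeterSystem M W} {A : I → I → ℤ} {h : IsCartan M A} {p : ℕ} {T : Subgroup Y} {n : I → Y}
  {X : (I → ℤ) → Subgroup Y}

/-- the sum over the `p`-elements acts as a scalar -/
theorem sum_pel_smul [Finite Y] {m : ℕ} (ρ : Representation ℂ Y (Fin m → ℂ)) (hρ : ρ.IsIrreducible) {w : ℂ}
    (hs : ∑ g ∈ pel Y p, ρ.character g = w * ρ.character 1) (f : Fin m → ℂ) :
    ∑ g ∈ pel Y p, ρ g f = w • f := by
  classical
  have := Fintype.ofFinite Y
  have h1 := Characters.CentralCharacter.sum_classFunction_smul_eq ρ (fun x => if x ∈ pel Y p then (1 : ℂ) else 0)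
    (fun x g => by
      have h2 : g * x * g⁻¹ ∈ pel Y p ↔ x ∈ pel Y p := by
        rw [mem_pel, mem_pel, show orderOf (g * x * g⁻¹) = orderOf x from (MulAut.conj g).orderOf_eq x]
      simp only [h2])
  have h3 := LinearMap.congr_fun h1 f
  have h4 : (∑ x : Y, (if x ∈ pel Y p then (1 : ℂ) else 0) • (ρ x : (Fin m → ℂ) →ₗ[ℂ] (Fin m → ℂ))) f =
      ∑ g ∈ pel Y p, ρ g f := by
    rw [LinearMap.sum_apply]
    have h5 : pel Y p = Finset.univ.filter (· ∈ pel Y p) := by ext; simp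
    conv_rhs => rw [h5, Finset.sum_filter]
    refine Finset.sum_congr rfl fun g _ => ?_
    split_ifs <;> simp
  have h5 : (∑ x : Y, (if x ∈ pel Y p then (1 : ℂ) else 0) * ρ.character x) = ∑ g ∈ pel Y p, ρ.character g := by
    have h5 : pel Y p = Finset.univ.filter (· ∈ pel Y p) := by ext; simp
    conv_rhs => rw [h5, Finset.sum_filter]
    refine Finset.sum_congr rfl fun g _ => ?_
    split_ifs <;> simp
  rw [h4, h5, hs, Representation.char_one] at h3
  have hd : (Module.finrank ℂ (Fin m → ℂ) : ℂ) ≠ 0 := by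
    exact_mod_cast (Characters.CentralCharacter.finrank_pos_of_irreducible ρ).ne'
  rw [h3, mul_div_cancel_right₀ _ hd]
  rfl

/-- **The sign of the Kawanaka scalar.** -/
theorem sign_of_cusp [Finite W] [Finite Y] [Fact p.Prime] (R : RGD cs h p T n X) (hG : GG cs h T X = ⊤)
    {m : ℕ} (ρ : Representation ℂ Y (Fin m → ℂ)) (hρ : ρ.IsIrreducible) (K : Finset I) {f : Fin m → ℂ}
    (hf0 : f ≠ 0) (hf : ∀ v ∈ VJ cs h X (K : Set I), ρ v f = f)
    (hc : ∀ K' : Finset I, K' ⊂ K → ∀ v : Fin m → ℂ, (∀ u ∈ VJ cs h X (K' : Set I), ρ u v = v) → v = 0)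
    {k : ℕ} {e : ℤ} (he : e = 1 ∨ e = -1)
    (hs : ∑ g ∈ pel Y p, ρ.character g = (e : ℂ) * (p : ℂ) ^ k * ρ.character 1) : e = (-1) ^ K.card := by
  classical
  have hfy : Fintype Y := Fintype.ofFinite Y
  letI : DistribMulAction Y (Fin m → ℂ) :=
    { smul := fun g v => ρ g v
      one_smul := fun v => by
        change ρ 1 v = v
        rw [map_one, Module.End.one_apply]
      mul_smul := fun a b v => by
        change ρ (a * b) v = ρ a (ρ b v)
        rw [map_mul, Module.End.mul_apply]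
      smul_zero := fun g => map_zero _
      smul_add := fun g v w => map_add _ _ _ }
  have key := Cfsg.Agent.H769.Kaw.kaw_cusp R hG K f hf fun K' hK' v hv => hc K' hK' v hv
  have h1 : ∑ g : Y, coef cs h T X g • g • f = ∑ g ∈ pel Y p, ρ g f := by
    have h5 : pel Y p = Finset.univ.filter (· ∈ pel Y p) := by ext; simp
    conv_rhs => rw [h5, Finset.sum_filter]
    refine Finset.sum_congr rfl fun g _ => ?_
    split_ifs with hg
    · rw [coef_eq_one R hG hg, one_smul]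
      rfl
    · rw [coef_of_not_mem R hg, zero_smul]
  rw [h1, sum_pel_smul ρ hρ hs] at key
  have hU : (0 : ℂ) < (Nat.card (UJ cs h X (K : Set I)) : ℂ) := by
    rw [Nat.cast_pos]
    exact Nat.card_pos
  have h2 : ∑ u ∈ Finset.univ.filter (· ∈ VJ cs h X (K : Set I)),
      ρ u (∑ y ∈ Finset.univ.filter (· ∈ VNJ cs h X (K : Set I)), ρ y f) =
      ((-1 : ℂ) ^ K.card * ((e : ℂ) * (p : ℂ) ^ k) * (Nat.card (UJ cs h X (K : Set I)) : ℂ)⁻¹) • f := by
    have h3 : ∑ u ∈ Finset.univ.filter (· ∈ VJ cs h X (K : Set I)),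
      ρ u (∑ y ∈ Finset.univ.filter (· ∈ VNJ cs h X (K : Set I)), ρ y f) =
      Cfsg.Agent.H769.Kaw.sm (VJ cs h X (K : Set I)) (Cfsg.Agent.H769.Kaw.sm (VNJ cs h X (K : Set I)) f) := rfl
    rw [h3, mul_comm _ (Nat.card (UJ cs h X (K : Set I)) : ℂ)⁻¹, mul_smul, mul_smul ((-1 : ℂ) ^ K.card), key,
      ← Int.cast_smul_eq_zsmul ℂ, ← Nat.cast_smul_eq_nsmul ℂ, smul_smul, smul_smul, smul_smul]
    have h8 : (Nat.card (UJ cs h X (K : Set I)) : ℂ)⁻¹ * (-1 : ℂ) ^ K.card * (((-1 : ℤ) ^ K.card : ℤ) : ℂ) *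
      (Nat.card (UJ cs h X (K : Set I)) : ℂ) = 1 := by
      have h9 : (-1 : ℂ) ^ K.card * (((-1 : ℤ) ^ K.card : ℤ) : ℂ) = 1 := by
        push_cast
        rw [← mul_pow]
        norm_num
      rw [mul_assoc _ ((-1 : ℂ) ^ K.card), h9, mul_one, inv_mul_cancel₀ hU.ne']
    rw [h8, one_smul]
  have h3 := nonneg_of_avg ρ _ _ hf0 hf h2
  have h4 : (0 : ℂ) ≤ (-1 : ℂ) ^ K.card * (e : ℂ) := by
    have hp : (0 : ℂ) < (p : ℂ) ^ k := by
      have h5 : (0 : ℂ) < (p : ℂ) := by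
        rw [Nat.cast_pos]
        exact (Fact.out : p.Prime).pos
      exact pow_pos h5 k
    have h6 := mul_nonneg h3 (mul_pos hU (inv_pos.2 hp)).le
    have h7 : (-1 : ℂ) ^ K.card * ((e : ℂ) * (p : ℂ) ^ k) * (Nat.card (UJ cs h X (K : Set I)) : ℂ)⁻¹ *
        ((Nat.card (UJ cs h X (K : Set I)) : ℂ) * ((p : ℂ) ^ k)⁻¹) = (-1 : ℂ) ^ K.card * (e : ℂ) := by
      field_simp [hU.ne', hp.ne']
    rwa [h7] at h6
  have h5 : (0 : ℤ) ≤ (-1) ^ K.card * e := by exact_mod_cast h4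
  rcases neg_one_pow_eq_or ℤ K.card with h6 | h6 <;> rw [h6] at h5 ⊢ <;> rcases he with rfl | rfl <;>
    simp_all

end Cfsg.Agent.H443.TD
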